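import Mathlib
import Cfsg.Prelude.Def_GeometricClasses

set_option autoImplicit false
open scoped MatrixGroups

namespace Cfsg.Agent.Lib.Helper99.X3

variable {F : Type*} [Field F]

/-- diag(1, ζ, ζ²) -/
def A0 (ζ : F) : Matrix (Fin 3) (Fin 3) F := Matrix.diagonal ![1, ζ, ζ ^ 2]

/-- the cyclic shift e0 → e1 → e2 → e0 -/
def B0 : Matrix (Fin 3) (Fin 3) F := !![0, 0, 1; 1, 0, 0; 0, 1, 0]

/-- the involution fixing e0 and swapping e1, e2 -/
def T0 : Matrix (Fin 3) (Fin 3) F := !![1, 0, 0; 0, 0, 1; 0, 1, 0]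

/-- `R` is the standard extraspecial group 3^{1+2} written in the basis `P`. -/
structure Std (R : Subgroup (GL (Fin 3) F)) (ζ : F) (P a b : GL (Fin 3) F) : Prop where
  ne : ζ ≠ 1
  cube : ζ ^ 3 = 1
  gen : R = Subgroup.closure {a, b}
  ha : (a : Matrix (Fin 3) (Fin 3) F) = (P : Matrix (Fin 3) (Fin 3) F) * A0 ζ * ((P⁻¹ : GL (Fin 3) F) : Matrix (Fin 3) (Fin 3) F)
  hb : (b : Matrix (Fin 3) (Fin 3) F) = (P : Matrix (Fin 3) (Fin 3) F) * B0 * ((P⁻¹ : GL (Fin 3) F) : Matrix (Fin 3) (Fin 3) F)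

end Cfsg.Agent.Lib.Helper99.X3
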